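import Cfsg.Agent.H16.P.JNT.D

/-! Generated by tools/h16 (computation kit). -/

set_option maxRecDepth 100000
set_option maxHeartbeats 0

namespace H16.JNT

open H26 (jn)
set_option Elab.async false
open DC DJ4 JM Subgroup
theorem cdr_6 : chk qd Cd (cd.rep cd.cj 1) cd.Wt (nat_lit 71) (nat_lit 10) = true := by decide +kernel
theorem cdr_7 : chk qd Cd (cd.rep cd.cj 1) cd.Wt (nat_lit 81) (nat_lit 10) = true := by decide +kernel
theorem cdr_8 : chk qd Cd (cd.rep cd.cj 1) cd.Wt (nat_lit 91) (nat_lit 10) = true := by decide +kernel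
theorem cdr_9 : chk qd Cd (cd.rep cd.cj 1) cd.Wt (nat_lit 101) (nat_lit 10) = true := by decide +kernel
theorem cdr_10 : chk qd Cd (cd.rep cd.cj 1) cd.Wt (nat_lit 111) (nat_lit 3) = true := by decide +kernel
theorem cdt_0 : chk qd Cd ((cd.alt [0, 0, 0, 1] cdV).rep cd.cj 1) cdV (nat_lit 0) (nat_lit 16) = true := by decide +kernel
theorem cdt_1 : chk qd Cd ((cd.alt [0, 0, 0, 1] cdV).rep cd.cj 1) cdV (nat_lit 16) (nat_lit 13) = true := by decide +kernel
theorem cdt_2 : chk qd Cd ((cd.alt [0, 0, 0, 1] cdV).rep cd.cj 1) cdV (nat_lit 29) (nat_lit 12) = true := by decide +kernel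
theorem cdt_3 : chk qd Cd ((cd.alt [0, 0, 0, 1] cdV).rep cd.cj 1) cdV (nat_lit 41) (nat_lit 12) = true := by decide +kernel
theorem cdt_4 : chk qd Cd ((cd.alt [0, 0, 0, 1] cdV).rep cd.cj 1) cdV (nat_lit 53) (nat_lit 12) = true := by decide +kernel
theorem cdt_5 : chk qd Cd ((cd.alt [0, 0, 0, 1] cdV).rep cd.cj 1) cdV (nat_lit 65) (nat_lit 11) = true := by decide +kernel
theorem cdt_6 : chk qd Cd ((cd.alt [0, 0, 0, 1] cdV).rep cd.cj 1) cdV (nat_lit 76) (nat_lit 10) = true := by decide +kernel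
theorem cdt_7 : chk qd Cd ((cd.alt [0, 0, 0, 1] cdV).rep cd.cj 1) cdV (nat_lit 86) (nat_lit 11) = true := by decide +kernel
theorem cdt_8 : chk qd Cd ((cd.alt [0, 0, 0, 1] cdV).rep cd.cj 1) cdV (nat_lit 97) (nat_lit 11) = true := by decide +kernel
theorem cdt_9 : chk qd Cd ((cd.alt [0, 0, 0, 1] cdV).rep cd.cj 1) cdV (nat_lit 108) (nat_lit 6) = true := by decide +kernel
theorem cdu : cd.Wt.map (·.1) = cdV.map (·.1) ∧ cdV.length = 114 ∧ ex [0, 0, 0, 1] = 23 + 1 := by decide +kernel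
theorem cds : (cd.E.length = 990 ∧ cd.Wt.length = 114) ∧ (qd.w = q₁.w ∧ 0 < 1 ∧ q₁.red cd.v = cd.v) ∧
    (cd.A ≤ cd.K ∧ ex cd.B = 37 + 1) ∧ (cd.T < cd.A ∧ ∀ k < cd.K, nth 0 cd.iv k < cd.K) ∧ (∀ d ∈ cd.E, d.2.2.1 = []) ∧
    (cd.E.map (·.2.2.2)).IsChain (· < ·) := by decide +kernel
theorem we_0 : allZ (fun k => qd.run fun q => frcs Cd fun C => Nat.xor (q.ev C (nth [] Ve k)) (nth 0 Ce k)) (nat_lit 0) (nat_lit 13) = true := by decide +kernel
theorem le : allL (ltAll 15) Ve = true := by decide +kernel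
theorem pLe_0 : qe.prChk Ce (nat_lit 13) Le (nat_lit 0) (nat_lit 18) = true := by decide +kernel
theorem lLe : Le.length = 18 ∧ ∀ d ∈ Le, ltAll 13 d.1 = 0 ∧ ltAll 13 d.2 = 0 := by decide +kernel
theorem oLe : chk qe Ce (ordE 13) [(4, 3)] 0 [(4, 3)].length = true := by decide +kernel
theorem me7 : ∀ k < 4, ltAll 7 (nth [] Ve k) = 0 := by decide +kernel
theorem cee_0 : chk q₁ Ce (ce.ent id) ce.E (nat_lit 0) (nat_lit 114) = true := by decide +kernel
theorem cee_1 : chk q₁ Ce (ce.ent id) ce.E (nat_lit 114) (nat_lit 111) = true := by decide +kernel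
theorem cee_2 : chk q₁ Ce (ce.ent id) ce.E (nat_lit 225) (nat_lit 114) = true := by decide +kernel
theorem cee_3 : chk q₁ Ce (ce.ent id) ce.E (nat_lit 339) (nat_lit 116) = true := by decide +kernel
theorem cee_4 : chk q₁ Ce (ce.ent id) ce.E (nat_lit 455) (nat_lit 116) = true := by decide +kernel
theorem cee_5 : chk q₁ Ce (ce.ent id) ce.E (nat_lit 571) (nat_lit 117) = true := by decide +kernel
theorem cee_6 : chk q₁ Ce (ce.ent id) ce.E (nat_lit 688) (nat_lit 113) = true := by decide +kernel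
theorem cee_7 : chk q₁ Ce (ce.ent id) ce.E (nat_lit 801) (nat_lit 95) = true := by decide +kernel
theorem cer_0 : chk qe Ce (ce.rep id 1) ce.Wt (nat_lit 0) (nat_lit 18) = true := by decide +kernel
theorem cer_1 : chk qe Ce (ce.rep id 1) ce.Wt (nat_lit 18) (nat_lit 17) = true := by decide +kernel
theorem cer_2 : chk qe Ce (ce.rep id 1) ce.Wt (nat_lit 35) (nat_lit 16) = true := by decide +kernel
theorem cer_3 : chk qe Ce (ce.rep id 1) ce.Wt (nat_lit 51) (nat_lit 15) = true := by decide +kernel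
theorem cer_4 : chk qe Ce (ce.rep id 1) ce.Wt (nat_lit 66) (nat_lit 15) = true := by decide +kernel
theorem cer_5 : chk qe Ce (ce.rep id 1) ce.Wt (nat_lit 81) (nat_lit 15) = true := by decide +kernel
theorem cer_6 : chk qe Ce (ce.rep id 1) ce.Wt (nat_lit 96) (nat_lit 15) = true := by decide +kernel
theorem cer_7 : chk qe Ce (ce.rep id 1) ce.Wt (nat_lit 111) (nat_lit 15) = true := by decide +kernel
theorem cer_8 : chk qe Ce (ce.rep id 1) ce.Wt (nat_lit 126) (nat_lit 14) = true := by decide +kernel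
theorem cer_9 : chk qe Ce (ce.rep id 1) ce.Wt (nat_lit 140) (nat_lit 14) = true := by decide +kernel
theorem cer_10 : chk qe Ce (ce.rep id 1) ce.Wt (nat_lit 154) (nat_lit 14) = true := by decide +kernel
theorem cer_11 : chk qe Ce (ce.rep id 1) ce.Wt (nat_lit 168) (nat_lit 14) = true := by decide +kernel
theorem cer_12 : chk qe Ce (ce.rep id 1) ce.Wt (nat_lit 182) (nat_lit 14) = true := by decide +kernel
theorem cer_13 : chk qe Ce (ce.rep id 1) ce.Wt (nat_lit 196) (nat_lit 14) = true := by decide +kernel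
theorem cer_14 : chk qe Ce (ce.rep id 1) ce.Wt (nat_lit 210) (nat_lit 15) = true := by decide +kernel
theorem cer_15 : chk qe Ce (ce.rep id 1) ce.Wt (nat_lit 225) (nat_lit 14) = true := by decide +kernel
theorem cer_16 : chk qe Ce (ce.rep id 1) ce.Wt (nat_lit 239) (nat_lit 14) = true := by decide +kernel
theorem cer_17 : chk qe Ce (ce.rep id 1) ce.Wt (nat_lit 253) (nat_lit 14) = true := by decide +kernel
theorem cer_18 : chk qe Ce (ce.rep id 1) ce.Wt (nat_lit 267) (nat_lit 14) = true := by decide +kernel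
theorem cer_19 : chk qe Ce (ce.rep id 1) ce.Wt (nat_lit 281) (nat_lit 13) = true := by decide +kernel
theorem cer_20 : chk qe Ce (ce.rep id 1) ce.Wt (nat_lit 294) (nat_lit 10) = true := by decide +kernel
theorem cet_0 : chk qe Ce ((ce.alt [0, 0, 0, 1] ceV).rep id 1) ceV (nat_lit 0) (nat_lit 20) = true := by decide +kernel
theorem cet_1 : chk qe Ce ((ce.alt [0, 0, 0, 1] ceV).rep id 1) ceV (nat_lit 20) (nat_lit 19) = true := by decide +kernel
theorem cet_2 : chk qe Ce ((ce.alt [0, 0, 0, 1] ceV).rep id 1) ceV (nat_lit 39) (nat_lit 17) = true := by decide +kernel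
theorem cet_3 : chk qe Ce ((ce.alt [0, 0, 0, 1] ceV).rep id 1) ceV (nat_lit 56) (nat_lit 18) = true := by decide +kernel
theorem cet_4 : chk qe Ce ((ce.alt [0, 0, 0, 1] ceV).rep id 1) ceV (nat_lit 74) (nat_lit 18) = true := by decide +kernel
theorem cet_5 : chk qe Ce ((ce.alt [0, 0, 0, 1] ceV).rep id 1) ceV (nat_lit 92) (nat_lit 17) = true := by decide +kernel
theorem cet_6 : chk qe Ce ((ce.alt [0, 0, 0, 1] ceV).rep id 1) ceV (nat_lit 109) (nat_lit 17) = true := by decide +kernel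
theorem cet_7 : chk qe Ce ((ce.alt [0, 0, 0, 1] ceV).rep id 1) ceV (nat_lit 126) (nat_lit 16) = true := by decide +kernel
theorem cet_8 : chk qe Ce ((ce.alt [0, 0, 0, 1] ceV).rep id 1) ceV (nat_lit 142) (nat_lit 16) = true := by decide +kernel
theorem cet_9 : chk qe Ce ((ce.alt [0, 0, 0, 1] ceV).rep id 1) ceV (nat_lit 158) (nat_lit 16) = true := by decide +kernel
theorem cet_10 : chk qe Ce ((ce.alt [0, 0, 0, 1] ceV).rep id 1) ceV (nat_lit 174) (nat_lit 16) = true := by decide +kernel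
theorem cet_11 : chk qe Ce ((ce.alt [0, 0, 0, 1] ceV).rep id 1) ceV (nat_lit 190) (nat_lit 16) = true := by decide +kernel
theorem cet_12 : chk qe Ce ((ce.alt [0, 0, 0, 1] ceV).rep id 1) ceV (nat_lit 206) (nat_lit 16) = true := by decide +kernel
theorem cet_13 : chk qe Ce ((ce.alt [0, 0, 0, 1] ceV).rep id 1) ceV (nat_lit 222) (nat_lit 15) = true := by decide +kernel
theorem cet_14 : chk qe Ce ((ce.alt [0, 0, 0, 1] ceV).rep id 1) ceV (nat_lit 237) (nat_lit 16) = true := by decide +kernel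
theorem cet_15 : chk qe Ce ((ce.alt [0, 0, 0, 1] ceV).rep id 1) ceV (nat_lit 253) (nat_lit 16) = true := by decide +kernel
theorem cet_16 : chk qe Ce ((ce.alt [0, 0, 0, 1] ceV).rep id 1) ceV (nat_lit 269) (nat_lit 15) = true := by decide +kernel
theorem cet_17 : chk qe Ce ((ce.alt [0, 0, 0, 1] ceV).rep id 1) ceV (nat_lit 284) (nat_lit 14) = true := by decide +kernel
theorem cet_18 : chk qe Ce ((ce.alt [0, 0, 0, 1] ceV).rep id 1) ceV (nat_lit 298) (nat_lit 6) = true := by decide +kernel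
theorem ceu : ce.Wt.map (·.1) = ceV.map (·.1) ∧ ceV.length = 304 ∧ ex [0, 0, 0, 1] = 23 + 1 := by decide +kernel
theorem ces : (ce.E.length = 896 ∧ ce.Wt.length = 304) ∧ (qe.w = q₁.w ∧ 0 < 1 ∧ q₁.red ce.v = ce.v) ∧
    (ce.A ≤ ce.K ∧ ex ce.B = 37 + 1) ∧ (ce.K₁ ≤ ce.T ∧ ce.T < ce.A) ∧ rowF q₁ (apR q₁ Ce [ce.T] ce.v) 0 = rowF q₁ ce.v 0 ∧
    (ce.E.map (·.2.2.2)).IsChain (· < ·) := by decide +kernel
theorem md2 : ∀ k < 7, 3 ≤ k → ltAll 2 (nth [] Vd k) = 0 := by decide +kernel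

end H16.JNT
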