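import Cfsg.Agent.H16.P.JNT.D

/-! Generated by tools/h16 (computation kit). -/

set_option maxRecDepth 100000
set_option maxHeartbeats 0

namespace H16.JNT

open H26 (jn)
set_option Elab.async false
open DC DJ4 JM Subgroup
theorem wx_0 : allZ (fun k => q.run fun q => frcs C fun C => Nat.xor (q.ev C (nth [] Vx k)) (nth 0 Cx k)) (nat_lit 0) (nat_lit 2) = true := by decide +kernel
theorem wx_1 : allZ (fun k => q.run fun q => frcs C fun C => Nat.xor (q.ev C (nth [] Vx k)) (nth 0 Cx k)) (nat_lit 2) (nat_lit 2) = true := by decide +kernel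
theorem wx_2 : allZ (fun k => q.run fun q => frcs C fun C => Nat.xor (q.ev C (nth [] Vx k)) (nth 0 Cx k)) (nat_lit 4) (nat_lit 2) = true := by decide +kernel
theorem wx_3 : allZ (fun k => q.run fun q => frcs C fun C => Nat.xor (q.ev C (nth [] Vx k)) (nth 0 Cx k)) (nat_lit 6) (nat_lit 2) = true := by decide +kernel
theorem lx : allL (ltAll 14) Vx = true := by decide +kernel
theorem pLP_0 : qx.prChk Cx (nat_lit 8) LP (nat_lit 0) (nat_lit 10) = true := by decide +kernel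
theorem lLP : LP.length = 10 ∧ ∀ d ∈ LP, ltAll 8 d.1 = 0 ∧ ltAll 8 d.2 = 0 := by decide +kernel
theorem oLP : chk qx Cx (ordE 8) [(2, 2)] 0 [(2, 2)].length = true := by decide +kernel
theorem wr_0 : allZ (fun k => qx.run fun q => frcs Cx fun C => Nat.xor (q.ev C (nth [] Vr k)) (nth 0 Cr k)) (nat_lit 0) (nat_lit 7) = true := by decide +kernel
theorem lr : allL (ltAll 8) Vr = true := by decide +kernel
theorem pLr_0 : qr.prChk Cr (nat_lit 7) Lr (nat_lit 0) (nat_lit 7) = true := by decide +kernel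
theorem lLr : Lr.length = 7 ∧ ∀ d ∈ Lr, ltAll 7 d.1 = 0 ∧ ltAll 7 d.2 = 0 := by decide +kernel
theorem oLr : chk qr Cr (ordE 7) [(0, 3), (1, 3), (2, 3), (3, 8)] 0 [(0, 3), (1, 3), (2, 3), (3, 8)].length = true := by decide +kernel
theorem mr4 : ∀ k < 5, ltAll 4 (nth [] Vr k) = 0 := by decide +kernel
theorem nerc : qr.neChk Cr (nat_lit 7) [nat_lit 1, nat_lit 2] [nat_lit 2, nat_lit 1] (nat_lit 1) = true := by decide +kernel
theorem wa_0 : allZ (fun k => qx.run fun q => frcs Cx fun C => Nat.xor (q.ev C (nth [] Va k)) (nth 0 Ca k)) (nat_lit 0) (nat_lit 8) = true := by decide +kernel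
theorem la : allL (ltAll 8) Va = true := by decide +kernel
theorem pLa_0 : qa.prChk Ca (nat_lit 8) La (nat_lit 0) (nat_lit 6) = true := by decide +kernel
theorem lLa : La.length = 6 ∧ ∀ d ∈ La, ltAll 8 d.1 = 0 ∧ ltAll 8 d.2 = 0 := by decide +kernel
theorem oLa : chk qa Ca (ordE 8) [(2, 7)] 0 [(2, 7)].length = true := by decide +kernel
theorem ma4 : ∀ k < 5, ltAll 4 (nth [] Va k) = 0 := by decide +kernel
theorem cae_0 : chk q₁ Ca (ca.ent id) ca.E (nat_lit 0) (nat_lit 111) = true := by decide +kernel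
theorem cae_1 : chk q₁ Ca (ca.ent id) ca.E (nat_lit 111) (nat_lit 112) = true := by decide +kernel
theorem cae_2 : chk q₁ Ca (ca.ent id) ca.E (nat_lit 223) (nat_lit 118) = true := by decide +kernel
theorem cae_3 : chk q₁ Ca (ca.ent id) ca.E (nat_lit 341) (nat_lit 19) = true := by decide +kernel
theorem car_0 : chk qa Ca (ca.rep id 1) ca.Wt (nat_lit 0) (nat_lit 22) = true := by decide +kernel
theorem car_1 : chk qa Ca (ca.rep id 1) ca.Wt (nat_lit 22) (nat_lit 17) = true := by decide +kernel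
theorem car_2 : chk qa Ca (ca.rep id 1) ca.Wt (nat_lit 39) (nat_lit 5) = true := by decide +kernel
theorem cas : (ca.E.length = 360 ∧ ca.Wt.length = 44) ∧ (qa.w = q₁.w ∧ 0 < 1 ∧ q₁.red ca.v = ca.v) ∧
    (ca.A ≤ ca.K ∧ ex ca.B = 31 + 1) ∧ (ca.K₁ ≤ ca.T ∧ ca.T < ca.A) ∧ rowF q₁ (apR q₁ Ca [ca.T] ca.v) 0 = rowF q₁ ca.v 0 ∧
    (ca.E.map (·.2.2.2)).IsChain (· < ·) := by decide +kernel
theorem wb_0 : allZ (fun k => qx.run fun q => frcs Cx fun C => Nat.xor (q.ev C (nth [] Vb k)) (nth 0 Cb k)) (nat_lit 0) (nat_lit 10) = true := by decide +kernel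
theorem wb_1 : allZ (fun k => qx.run fun q => frcs Cx fun C => Nat.xor (q.ev C (nth [] Vb k)) (nth 0 Cb k)) (nat_lit 10) (nat_lit 2) = true := by decide +kernel
theorem lb : allL (ltAll 8) Vb = true := by decide +kernel
theorem pLb_0 : qb.prChk Cb (nat_lit 12) Lb (nat_lit 0) (nat_lit 23) = true := by decide +kernel
theorem lLb : Lb.length = 23 ∧ ∀ d ∈ Lb, ltAll 12 d.1 = 0 ∧ ltAll 12 d.2 = 0 := by decide +kernel
theorem mb4 : ∀ k < 7, ltAll 4 (nth [] Vb k) = 0 := by decide +kernel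
theorem cbe_0 : chk q₁ Cb (cb.ent cb.cj) cb.E (nat_lit 0) (nat_lit 43) = true := by decide +kernel
theorem cbe_1 : chk q₁ Cb (cb.ent cb.cj) cb.E (nat_lit 43) (nat_lit 41) = true := by decide +kernel
theorem cbe_2 : chk q₁ Cb (cb.ent cb.cj) cb.E (nat_lit 84) (nat_lit 40) = true := by decide +kernel
theorem cbe_3 : chk q₁ Cb (cb.ent cb.cj) cb.E (nat_lit 124) (nat_lit 42) = true := by decide +kernel
theorem cbe_4 : chk q₁ Cb (cb.ent cb.cj) cb.E (nat_lit 166) (nat_lit 41) = true := by decide +kernel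
theorem cbe_5 : chk q₁ Cb (cb.ent cb.cj) cb.E (nat_lit 207) (nat_lit 41) = true := by decide +kernel
theorem cbe_6 : chk q₁ Cb (cb.ent cb.cj) cb.E (nat_lit 248) (nat_lit 40) = true := by decide +kernel
theorem cbe_7 : chk q₁ Cb (cb.ent cb.cj) cb.E (nat_lit 288) (nat_lit 42) = true := by decide +kernel
theorem cbe_8 : chk q₁ Cb (cb.ent cb.cj) cb.E (nat_lit 330) (nat_lit 42) = true := by decide +kernel
theorem cbe_9 : chk q₁ Cb (cb.ent cb.cj) cb.E (nat_lit 372) (nat_lit 41) = true := by decide +kernel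
theorem cbe_10 : chk q₁ Cb (cb.ent cb.cj) cb.E (nat_lit 413) (nat_lit 39) = true := by decide +kernel
theorem cbe_11 : chk q₁ Cb (cb.ent cb.cj) cb.E (nat_lit 452) (nat_lit 41) = true := by decide +kernel
theorem cbe_12 : chk q₁ Cb (cb.ent cb.cj) cb.E (nat_lit 493) (nat_lit 41) = true := by decide +kernel
theorem cbe_13 : chk q₁ Cb (cb.ent cb.cj) cb.E (nat_lit 534) (nat_lit 41) = true := by decide +kernel
theorem cbe_14 : chk q₁ Cb (cb.ent cb.cj) cb.E (nat_lit 575) (nat_lit 39) = true := by decide +kernel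
theorem cbe_15 : chk q₁ Cb (cb.ent cb.cj) cb.E (nat_lit 614) (nat_lit 40) = true := by decide +kernel
theorem cbe_16 : chk q₁ Cb (cb.ent cb.cj) cb.E (nat_lit 654) (nat_lit 44) = true := by decide +kernel
theorem cbe_17 : chk q₁ Cb (cb.ent cb.cj) cb.E (nat_lit 698) (nat_lit 42) = true := by decide +kernel
theorem cbe_18 : chk q₁ Cb (cb.ent cb.cj) cb.E (nat_lit 740) (nat_lit 40) = true := by decide +kernel
theorem cbe_19 : chk q₁ Cb (cb.ent cb.cj) cb.E (nat_lit 780) (nat_lit 43) = true := by decide +kernel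
theorem cbe_20 : chk q₁ Cb (cb.ent cb.cj) cb.E (nat_lit 823) (nat_lit 42) = true := by decide +kernel
theorem cbe_21 : chk q₁ Cb (cb.ent cb.cj) cb.E (nat_lit 865) (nat_lit 40) = true := by decide +kernel
theorem cbe_22 : chk q₁ Cb (cb.ent cb.cj) cb.E (nat_lit 905) (nat_lit 42) = true := by decide +kernel
theorem cbe_23 : chk q₁ Cb (cb.ent cb.cj) cb.E (nat_lit 947) (nat_lit 42) = true := by decide +kernel
theorem cbe_24 : chk q₁ Cb (cb.ent cb.cj) cb.E (nat_lit 989) (nat_lit 42) = true := by decide +kernel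
theorem cbe_25 : chk q₁ Cb (cb.ent cb.cj) cb.E (nat_lit 1031) (nat_lit 42) = true := by decide +kernel
theorem cbe_26 : chk q₁ Cb (cb.ent cb.cj) cb.E (nat_lit 1073) (nat_lit 42) = true := by decide +kernel
theorem cbe_27 : chk q₁ Cb (cb.ent cb.cj) cb.E (nat_lit 1115) (nat_lit 40) = true := by decide +kernel
theorem cbr_0 : chk qb Cb (cb.rep cb.cj 1) cb.Wt (nat_lit 0) (nat_lit 13) = true := by decide +kernel
theorem cbr_1 : chk qb Cb (cb.rep cb.cj 1) cb.Wt (nat_lit 13) (nat_lit 10) = true := by decide +kernel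
theorem cbr_2 : chk qb Cb (cb.rep cb.cj 1) cb.Wt (nat_lit 23) (nat_lit 2) = true := by decide +kernel
theorem cbt_0 : chk qb Cb ((cb.alt [0, 0, 0, 1] cbV).rep cb.cj 1) cbV (nat_lit 0) (nat_lit 14) = true := by decide +kernel
theorem cbt_1 : chk qb Cb ((cb.alt [0, 0, 0, 1] cbV).rep cb.cj 1) cbV (nat_lit 14) (nat_lit 11) = true := by decide +kernel
theorem cbu : cb.Wt.map (·.1) = cbV.map (·.1) ∧ cbV.length = 25 ∧ ex [0, 0, 0, 1] = 23 + 1 := by decide +kernel
theorem cbs : (cb.E.length = 1155 ∧ cb.Wt.length = 25) ∧ (qb.w = q₁.w ∧ 0 < 1 ∧ q₁.red cb.v = cb.v) ∧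
    (cb.A ≤ cb.K ∧ ex cb.B = 37 + 1) ∧ (cb.T < cb.A ∧ ∀ k < cb.K, nth 0 cb.iv k < cb.K) ∧ (∀ d ∈ cb.E, d.2.2.1 = []) ∧
    (cb.E.map (·.2.2.2)).IsChain (· < ·) := by decide +kernel
theorem wc_0 : allZ (fun k => qb.run fun q => frcs Cb fun C => Nat.xor (q.ev C (nth [] Vc k)) (nth 0 Cc k)) (nat_lit 0) (nat_lit 10) = true := by decide +kernel
theorem lc : allL (ltAll 12) Vc = true := by decide +kernel
theorem pLc_0 : qc.prChk Cc (nat_lit 10) Lc (nat_lit 0) (nat_lit 16) = true := by decide +kernel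
theorem lLc : Lc.length = 16 ∧ ∀ d ∈ Lc, ltAll 10 d.1 = 0 ∧ ltAll 10 d.2 = 0 := by decide +kernel
theorem oLc : chk qc Cc (ordE 10) [(2, 12)] 0 [(2, 12)].length = true := by decide +kernel
theorem mc7 : ∀ k < 6, ltAll 7 (nth [] Vc k) = 0 := by decide +kernel
theorem cce_0 : chk q₁ Cc (cc.ent id) cc.E (nat_lit 0) (nat_lit 108) = true := by decide +kernel
theorem cce_1 : chk q₁ Cc (cc.ent id) cc.E (nat_lit 108) (nat_lit 108) = true := by decide +kernel
theorem cce_2 : chk q₁ Cc (cc.ent id) cc.E (nat_lit 216) (nat_lit 109) = true := by decide +kernel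
theorem cce_3 : chk q₁ Cc (cc.ent id) cc.E (nat_lit 325) (nat_lit 59) = true := by decide +kernel
theorem ccr_0 : chk qc Cc (cc.rep id 1) cc.Wt (nat_lit 0) (nat_lit 17) = true := by decide +kernel
theorem ccr_1 : chk qc Cc (cc.rep id 1) cc.Wt (nat_lit 17) (nat_lit 15) = true := by decide +kernel
theorem ccr_2 : chk qc Cc (cc.rep id 1) cc.Wt (nat_lit 32) (nat_lit 14) = true := by decide +kernel
theorem ccr_3 : chk qc Cc (cc.rep id 1) cc.Wt (nat_lit 46) (nat_lit 13) = true := by decide +kernel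
theorem ccr_4 : chk qc Cc (cc.rep id 1) cc.Wt (nat_lit 59) (nat_lit 1) = true := by decide +kernel
theorem cct_0 : chk qc Cc ((cc.alt [0, 0, 0, 1] ccV).rep id 1) ccV (nat_lit 0) (nat_lit 19) = true := by decide +kernel
theorem cct_1 : chk qc Cc ((cc.alt [0, 0, 0, 1] ccV).rep id 1) ccV (nat_lit 19) (nat_lit 17) = true := by decide +kernel
theorem cct_2 : chk qc Cc ((cc.alt [0, 0, 0, 1] ccV).rep id 1) ccV (nat_lit 36) (nat_lit 15) = true := by decide +kernel
theorem cct_3 : chk qc Cc ((cc.alt [0, 0, 0, 1] ccV).rep id 1) ccV (nat_lit 51) (nat_lit 9) = true := by decide +kernel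
theorem ccu : cc.Wt.map (·.1) = ccV.map (·.1) ∧ ccV.length = 60 ∧ ex [0, 0, 0, 1] = 23 + 1 := by decide +kernel
theorem ccs : (cc.E.length = 384 ∧ cc.Wt.length = 60) ∧ (qc.w = q₁.w ∧ 0 < 1 ∧ q₁.red cc.v = cc.v) ∧
    (cc.A ≤ cc.K ∧ ex cc.B = 37 + 1) ∧ (cc.K₁ ≤ cc.T ∧ cc.T < cc.A) ∧ rowF q₁ (apR q₁ Cc [cc.T] cc.v) 0 = rowF q₁ cc.v 0 ∧
    (cc.E.map (·.2.2.2)).IsChain (· < ·) := by decide +kernel
theorem wd_0 : allZ (fun k => qr.run fun q => frcs Cr fun C => Nat.xor (q.ev C (nth [] Vd k)) (nth 0 Cd k)) (nat_lit 0) (nat_lit 15) = true := by decide +kernel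
theorem ld : allL (ltAll 7) Vd = true := by decide +kernel
theorem pLd_0 : qd.prChk Cd (nat_lit 15) Ld (nat_lit 0) (nat_lit 27) = true := by decide +kernel
theorem lLd : Ld.length = 27 ∧ ∀ d ∈ Ld, ltAll 15 d.1 = 0 ∧ ltAll 15 d.2 = 0 := by decide +kernel
theorem md5 : ∀ k < 3, ltAll 5 (nth [] Vd k) = 0 := by decide +kernel
theorem cde_0 : chk q₁ Cd (cd.ent cd.cj) cd.E (nat_lit 0) (nat_lit 53) = true := by decide +kernel
theorem cde_1 : chk q₁ Cd (cd.ent cd.cj) cd.E (nat_lit 53) (nat_lit 51) = true := by decide +kernel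
theorem cde_2 : chk q₁ Cd (cd.ent cd.cj) cd.E (nat_lit 104) (nat_lit 53) = true := by decide +kernel
theorem cde_3 : chk q₁ Cd (cd.ent cd.cj) cd.E (nat_lit 157) (nat_lit 55) = true := by decide +kernel
theorem cde_4 : chk q₁ Cd (cd.ent cd.cj) cd.E (nat_lit 212) (nat_lit 54) = true := by decide +kernel
theorem cde_5 : chk q₁ Cd (cd.ent cd.cj) cd.E (nat_lit 266) (nat_lit 55) = true := by decide +kernel
theorem cde_6 : chk q₁ Cd (cd.ent cd.cj) cd.E (nat_lit 321) (nat_lit 53) = true := by decide +kernel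
theorem cde_7 : chk q₁ Cd (cd.ent cd.cj) cd.E (nat_lit 374) (nat_lit 54) = true := by decide +kernel
theorem cde_8 : chk q₁ Cd (cd.ent cd.cj) cd.E (nat_lit 428) (nat_lit 55) = true := by decide +kernel
theorem cde_9 : chk q₁ Cd (cd.ent cd.cj) cd.E (nat_lit 483) (nat_lit 52) = true := by decide +kernel
theorem cde_10 : chk q₁ Cd (cd.ent cd.cj) cd.E (nat_lit 535) (nat_lit 54) = true := by decide +kernel
theorem cde_11 : chk q₁ Cd (cd.ent cd.cj) cd.E (nat_lit 589) (nat_lit 51) = true := by decide +kernel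
theorem cde_12 : chk q₁ Cd (cd.ent cd.cj) cd.E (nat_lit 640) (nat_lit 52) = true := by decide +kernel
theorem cde_13 : chk q₁ Cd (cd.ent cd.cj) cd.E (nat_lit 692) (nat_lit 53) = true := by decide +kernel
theorem cde_14 : chk q₁ Cd (cd.ent cd.cj) cd.E (nat_lit 745) (nat_lit 54) = true := by decide +kernel
theorem cde_15 : chk q₁ Cd (cd.ent cd.cj) cd.E (nat_lit 799) (nat_lit 54) = true := by decide +kernel
theorem cde_16 : chk q₁ Cd (cd.ent cd.cj) cd.E (nat_lit 853) (nat_lit 54) = true := by decide +kernel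
theorem cde_17 : chk q₁ Cd (cd.ent cd.cj) cd.E (nat_lit 907) (nat_lit 52) = true := by decide +kernel
theorem cde_18 : chk q₁ Cd (cd.ent cd.cj) cd.E (nat_lit 959) (nat_lit 31) = true := by decide +kernel
theorem cdr_0 : chk qd Cd (cd.rep cd.cj 1) cd.Wt (nat_lit 0) (nat_lit 15) = true := by decide +kernel
theorem cdr_1 : chk qd Cd (cd.rep cd.cj 1) cd.Wt (nat_lit 15) (nat_lit 12) = true := by decide +kernel
theorem cdr_2 : chk qd Cd (cd.rep cd.cj 1) cd.Wt (nat_lit 27) (nat_lit 11) = true := by decide +kernel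
theorem cdr_3 : chk qd Cd (cd.rep cd.cj 1) cd.Wt (nat_lit 38) (nat_lit 11) = true := by decide +kernel
theorem cdr_4 : chk qd Cd (cd.rep cd.cj 1) cd.Wt (nat_lit 49) (nat_lit 11) = true := by decide +kernel
theorem cdr_5 : chk qd Cd (cd.rep cd.cj 1) cd.Wt (nat_lit 60) (nat_lit 11) = true := by decide +kernel

end H16.JNT
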